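import Mathlib

/-!
# No dihedral group of order 14 acts on a group of order 8 with fixed point free rotation

Package PK-7 of the S2772 project: `Q` of order `8`, `ρ` of order `7` normalizing `Q` without
non-trivial fixed points, `t` normalizing `Q` with `t * t ∈ Q` and `t ρ t⁻¹ ρ ∈ Q`: impossible.
-/

set_option autoImplicit false

namespace Cfsg.Agent.Lib.Helper67.Sub3

variable {H : Type*} [Group H]

/-- fixed point congruence for conjugation by an element of prime order on an invariant finite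
set -/
theorem card_modEq_card_fixed_set {p : ℕ} [Fact p.Prime] (S : Set H) [Finite S] (ρ : H)
    (hρS : ∀ v ∈ S, ρ * v * ρ⁻¹ ∈ S) (hρ : ρ ^ p = 1) :
    Nat.card S ≡ Nat.card {v : S // ρ * (v : H) * ρ⁻¹ = v} [MOD p] := by
  classical
  have : Fintype S := Fintype.ofFinite S
  let f : Function.End S := fun v => ⟨ρ * v * ρ⁻¹, hρS v v.2⟩
  have hfk : ∀ k : ℕ, ∀ v : S, (((f ^ k) v : S) : H) = ρ ^ k * v * (ρ ^ k)⁻¹ := by
    intro k
    induction k with
    | zero =>
      intro v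
      have h0 : (f ^ 0) v = v := by rw [pow_zero]; rfl
      rw [h0]
      simp
    | succ k ih =>
      intro v
      have h1 : (f ^ (k + 1)) v = f ((f ^ k) v) := by
        rw [pow_succ']; rfl
      rw [h1]
      show ρ * (((f ^ k) v : S) : H) * ρ⁻¹ = _
      rw [ih v, pow_succ']
      group
  have hf : f ^ p ^ 1 = 1 := by
    funext v
    apply Subtype.ext
    rw [pow_one, hfk, hρ]
    show (1 : H) * (v : H) * (1 : H)⁻¹ = (v : H)
    simp
  have hmod := Equiv.Perm.card_fixedPoints_modEq (p := p) (n := 1) hf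
  rw [← Nat.card_eq_fintype_card, ← Nat.card_eq_fintype_card] at hmod
  have h2 : Nat.card (Function.fixedPoints f) = Nat.card {v : S // ρ * (v : H) * ρ⁻¹ = v} := by
    refine Nat.card_congr (Equiv.subtypeEquivRight (fun v => ?_))
    constructor
    · intro hv
      exact congrArg Subtype.val hv
    · intro hv
      exact Subtype.ext hv
  rw [h2] at hmod
  exact hmod

/-- in a subgroup of exponent two, the centralizer of an element acting as an involution is
large -/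
theorem exists_large_centralizer (Q : Subgroup H) [Finite Q] (hexp : ∀ v ∈ Q, v * v = 1)
    (s : H) (hsn : ∀ v ∈ Q, s * v * s⁻¹ ∈ Q) (hs2 : s * s ∈ Q) :
    ∃ K : Subgroup ↥Q, (∀ v : ↥Q, v ∈ K → s * (v : H) = (v : H) * s) ∧
      Nat.card Q ≤ Nat.card K * Nat.card K := by
  have hinv : ∀ v ∈ Q, v⁻¹ = v := fun v hv => inv_eq_of_mul_eq_one_left (hexp v hv)
  have hcomm : ∀ a ∈ Q, ∀ b ∈ Q, a * b = b * a := by
    intro a ha b hb
    have h1 := hexp (a * b) (mul_mem ha hb)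
    have h2 : a * b = (a * b)⁻¹ := (hinv _ (mul_mem ha hb)).symm
    rw [h2, mul_inv_rev, hinv a ha, hinv b hb]
  let φ : ↥Q →* ↥Q := MonoidHom.mk' (fun v => ⟨(v : H) * (s * v * s⁻¹), mul_mem v.2 (hsn v v.2)⟩)
    (by
      intro a b
      apply Subtype.ext
      show ((a : H) * (b : H)) * (s * ((a : H) * (b : H)) * s⁻¹) =
        ((a : H) * (s * a * s⁻¹)) * ((b : H) * (s * b * s⁻¹))
      have h1 : s * ((a : H) * (b : H)) * s⁻¹ = (s * a * s⁻¹) * (s * b * s⁻¹) := by group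
      have h2 := hcomm (b : H) b.2 (s * a * s⁻¹) (hsn a a.2)
      rw [h1]
      calc (a : H) * (b : H) * ((s * a * s⁻¹) * (s * b * s⁻¹))
          = (a : H) * ((b : H) * (s * a * s⁻¹)) * (s * b * s⁻¹) := by group
        _ = (a : H) * ((s * a * s⁻¹) * (b : H)) * (s * b * s⁻¹) := by rw [h2]
        _ = _ := by group)
  have hφ : ∀ v : ↥Q, ((φ v : ↥Q) : H) = (v : H) * (s * v * s⁻¹) := fun v => rfl
  have hker : ∀ v : ↥Q, v ∈ φ.ker ↔ s * (v : H) = (v : H) * s := by
    intro v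
    rw [MonoidHom.mem_ker]
    constructor
    · intro h
      have h1 : (v : H) * (s * v * s⁻¹) = 1 := by
        rw [← hφ, h]; rfl
      have h2 : s * v * s⁻¹ = (v : H)⁻¹ := (eq_inv_of_mul_eq_one_right h1)
      rw [hinv v v.2] at h2
      calc s * (v : H) = s * v * s⁻¹ * s := by group
        _ = (v : H) * s := by rw [h2]
    · intro h
      apply Subtype.ext
      rw [hφ]
      have h1 : s * (v : H) * s⁻¹ = v := by rw [h]; group
      rw [h1]
      exact hexp v v.2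
  have hrange : φ.range ≤ φ.ker := by
    rintro w ⟨v, rfl⟩
    rw [hker, hφ]
    have h1 : s * s * (v : H) = (v : H) * (s * s) := hcomm _ hs2 _ v.2
    have h2 := hcomm (v : H) v.2 (s * v * s⁻¹) (hsn v v.2)
    calc s * ((v : H) * (s * v * s⁻¹)) = (s * v * s⁻¹) * (s * s * (v : H)) * s⁻¹ * s⁻¹ * s := by
          group
      _ = (s * v * s⁻¹) * ((v : H) * (s * s)) * s⁻¹ * s⁻¹ * s := by rw [h1]
      _ = (s * v * s⁻¹) * (v : H) * s := by group
      _ = (v : H) * (s * v * s⁻¹) * s := by rw [h2]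
  refine ⟨φ.ker, fun v hv => (hker v).mp hv, ?_⟩
  have h1 := Subgroup.card_mul_index φ.ker
  rw [Subgroup.index_ker] at h1
  have h2 : Nat.card φ.range ≤ Nat.card φ.ker := Subgroup.card_le_of_le hrange
  calc Nat.card Q = Nat.card φ.ker * Nat.card φ.range := h1.symm
    _ ≤ Nat.card φ.ker * Nat.card φ.ker := Nat.mul_le_mul_left _ h2

/-- PK-7 -/
theorem no_d14 (Q : Subgroup H) (hQ : Nat.card Q = 8) (ρ t : H)
    (hρn : ∀ v ∈ Q, ρ * v * ρ⁻¹ ∈ Q) (htn : ∀ v ∈ Q, t * v * t⁻¹ ∈ Q) (hρ7 : ρ ^ 7 = 1)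
    (hfix : ∀ v ∈ Q, ρ * v = v * ρ → v = 1) (ht2 : t * t ∈ Q) (hinv : t * ρ * t⁻¹ * ρ ∈ Q) :
    False := by
  classical
  have hQfin : Finite Q := Nat.finite_of_card_ne_zero (by rw [hQ]; norm_num)
  have h7 : Fact (Nat.Prime 7) := ⟨by norm_num⟩
  have h2 : Fact (Nat.Prime 2) := ⟨Nat.prime_two⟩
  -- an involution
  obtain ⟨c', hc'⟩ := exists_prime_orderOf_dvd_card' (G := ↥Q) 2 (by rw [hQ]; norm_num)
  have hc1 : (c' : H) ≠ 1 := by
    intro h
    have h1 : c' = 1 := Subtype.ext h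
    rw [h1, orderOf_one] at hc'
    omega
  have hc2 : (c' : H) * (c' : H) = 1 := by
    have h1 : c' ^ 2 = 1 := by rw [← hc']; exact pow_orderOf_eq_one c'
    have h3 : ((c' ^ 2 : ↥Q) : H) = 1 := by rw [h1]; rfl
    rw [pow_two] at h3
    exact h3
  -- exponent two
  have hexp : ∀ v ∈ Q, v * v = 1 := by
    obtain ⟨S, hSdef⟩ : ∃ S : Set H, S = {v | v ∈ Q ∧ v * v = 1} := ⟨_, rfl⟩
    have hSQ : S ⊆ (Q : Set H) := by
      intro v hv
      rw [hSdef] at hv
      exact hv.1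
    have hQf : (Q : Set H).Finite := Set.toFinite _
    have hSfin : Finite S := Set.Finite.subset hQf hSQ
    have hmod := card_modEq_card_fixed_set (p := 7) S ρ (by
      intro v hv
      rw [hSdef] at hv ⊢
      refine ⟨hρn v hv.1, ?_⟩
      calc ρ * v * ρ⁻¹ * (ρ * v * ρ⁻¹) = ρ * (v * v) * ρ⁻¹ := by group
        _ = 1 := by rw [hv.2]; group) hρ7
    have hone : Nat.card {v : S // ρ * (v : H) * ρ⁻¹ = v} = 1 := by
      rw [Nat.card_eq_one_iff_unique]
      constructor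
      · constructor
        intro a b
        have ha : ((a : S) : H) = 1 := by
          have h1 : ((a : S) : H) ∈ Q := hSQ a.1.2
          apply hfix _ h1
          calc ρ * ((a : S) : H) = ρ * ((a : S) : H) * ρ⁻¹ * ρ := by group
            _ = ((a : S) : H) * ρ := by rw [a.2]
        have hb : ((b : S) : H) = 1 := by
          have h1 : ((b : S) : H) ∈ Q := hSQ b.1.2
          apply hfix _ h1
          calc ρ * ((b : S) : H) = ρ * ((b : S) : H) * ρ⁻¹ * ρ := by group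
            _ = ((b : S) : H) * ρ := by rw [b.2]
        exact Subtype.ext (Subtype.ext (ha.trans hb.symm))
      · exact ⟨⟨⟨1, by rw [hSdef]; exact ⟨Q.one_mem, by group⟩⟩, by
          show ρ * (1 : H) * ρ⁻¹ = 1
          group⟩⟩
    rw [hone, Nat.card_coe_set_eq] at hmod
    have hle : S.ncard ≤ (Q : Set H).ncard := Set.ncard_le_ncard hSQ hQf
    have hQn : (Q : Set H).ncard = 8 := by
      rw [← Nat.card_coe_set_eq]
      exact hQ
    have hne1 : S.ncard ≠ 1 := by
      intro h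
      obtain ⟨a, ha⟩ := Set.ncard_eq_one.mp h
      have h1 : (1 : H) ∈ S := by rw [hSdef]; exact ⟨Q.one_mem, by group⟩
      have h2 : (c' : H) ∈ S := by rw [hSdef]; exact ⟨c'.2, hc2⟩
      rw [ha] at h1 h2
      exact hc1 (h2.trans h1.symm)
    have h8 : S.ncard = 8 := by
      rw [hQn] at hle
      unfold Nat.ModEq at hmod
      omega
    have hSeq : S = (Q : Set H) := Set.eq_of_subset_of_ncard_le hSQ (by rw [h8, hQn]) hQf
    intro v hv
    have h1 : v ∈ S := by rw [hSeq]; exact hv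
    rw [hSdef] at h1
    exact h1.2
  have hinvQ : ∀ v ∈ Q, v⁻¹ = v := fun v hv => inv_eq_of_mul_eq_one_left (hexp v hv)
  have hcomm : ∀ a ∈ Q, ∀ b ∈ Q, a * b = b * a := by
    intro a ha b hb
    have h2 : a * b = (a * b)⁻¹ := (hinvQ _ (mul_mem ha hb)).symm
    rw [h2, mul_inv_rev, hinvQ a ha, hinvQ b hb]
  -- the two centralizers
  obtain ⟨K1, hK1, hK1c⟩ := exists_large_centralizer Q hexp t htn ht2
  obtain ⟨K2, hK2, hK2c⟩ := exists_large_centralizer Q hexp (ρ * t * ρ⁻¹) (by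
    intro v hv
    have h1 : ρ⁻¹ * v * ρ ∈ Q := by
      have h3 : ρ⁻¹ = ρ ^ 6 := by
        apply inv_eq_of_mul_eq_one_left
        rw [← pow_succ]
        exact hρ7
      have h4 : ∀ k : ℕ, ∀ w ∈ Q, ρ ^ k * w * (ρ ^ k)⁻¹ ∈ Q := by
        intro k
        induction k with
        | zero => intro w hw; simpa using hw
        | succ k ih =>
          intro w hw
          have h5 := hρn _ (ih w hw)
          have h6 : ρ * (ρ ^ k * w * (ρ ^ k)⁻¹) * ρ⁻¹ = ρ ^ (k + 1) * w * (ρ ^ (k + 1))⁻¹ := by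
            rw [pow_succ']; group
          rwa [h6] at h5
      have h5 := h4 6 v hv
      rw [← h3, inv_inv] at h5
      exact h5
    have h2 := hρn _ (htn _ h1)
    have h3 : ρ * (t * (ρ⁻¹ * v * ρ) * t⁻¹) * ρ⁻¹ = ρ * t * ρ⁻¹ * v * (ρ * t * ρ⁻¹)⁻¹ := by group
    rwa [h3] at h2) (by
    have h1 := hρn _ ht2
    have h2 : ρ * (t * t) * ρ⁻¹ = ρ * t * ρ⁻¹ * (ρ * t * ρ⁻¹) := by group
    rwa [h2] at h1)
  rw [hQ] at hK1c hK2c
  have hi1 : K1.index ≤ 2 := by
    have h1 := Subgroup.card_mul_index K1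
    rw [hQ] at h1
    by_contra hcon
    have h3 : 3 ≤ K1.index := by omega
    have h4 : Nat.card K1 ≤ 2 := by
      by_contra h5
      have h6 : 3 ≤ Nat.card K1 := by omega
      have := Nat.mul_le_mul h6 h3
      omega
    have := Nat.mul_le_mul h4 h4
    omega
  have hi2 : K2.index ≤ 2 := by
    have h1 := Subgroup.card_mul_index K2
    rw [hQ] at h1
    by_contra hcon
    have h3 : 3 ≤ K2.index := by omega
    have h4 : Nat.card K2 ≤ 2 := by
      by_contra h5
      have h6 : 3 ≤ Nat.card K2 := by omega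
      have := Nat.mul_le_mul h6 h3
      omega
    have := Nat.mul_le_mul h4 h4
    omega
  have hi : (K1 ⊓ K2).index ≤ 4 :=
    (Subgroup.index_inf_le (H := K1) (K := K2)).trans (Nat.mul_le_mul hi1 hi2)
  have hcard : 2 ≤ Nat.card (K1 ⊓ K2 : Subgroup ↥Q) := by
    have h1 := Subgroup.card_mul_index (K1 ⊓ K2)
    rw [hQ] at h1
    by_contra hcon
    have h3 : Nat.card (K1 ⊓ K2 : Subgroup ↥Q) ≤ 1 := by omega
    have := Nat.mul_le_mul h3 hi
    omega
  have hne : K1 ⊓ K2 ≠ ⊥ := by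
    intro h
    rw [h, Subgroup.card_bot] at hcard
    omega
  obtain ⟨⟨v, hv⟩, hv1⟩ := (Subgroup.ne_bot_iff_exists_ne_one).mp hne
  have c1 : Commute (ρ * t * ρ⁻¹) (v : H) := hK2 v hv.2
  have c2 : Commute t (v : H) := hK1 v hv.1
  have c3 : Commute (t * ρ * t⁻¹ * ρ) (v : H) := hcomm _ hinv _ v.2
  have c4 : Commute (ρ * t * ρ⁻¹ * t⁻¹ * (t * ρ * t⁻¹ * ρ)) (v : H) :=
    (c1.mul_left c2.inv_left).mul_left c3
  have h3 : ρ * t * ρ⁻¹ * t⁻¹ * (t * ρ * t⁻¹ * ρ) = ρ ^ 2 := by rw [pow_two]; group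
  rw [h3] at c4
  have c5 : Commute ((ρ ^ 2) ^ 4) (v : H) := c4.pow_left 4
  have h4 : (ρ ^ 2) ^ 4 = ρ := by
    rw [← pow_mul]
    calc ρ ^ (2 * 4) = ρ ^ 7 * ρ := by rw [← pow_succ]
      _ = ρ := by rw [hρ7, one_mul]
  rw [h4] at c5
  have h5 := hfix v v.2 c5.eq
  exact hv1 (Subtype.ext (Subtype.ext h5))

end Cfsg.Agent.Lib.Helper67.Sub3
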